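import Cfsg.Agent.H7.Ch.Red
import Cfsg.Agent.H2.NU0
import Cfsg.Agent.H4.Ch.Bo
import Cfsg.Agent.H6.Ch.Blk

/-! Assembly of the order bound for primitive groups. -/

set_option autoImplicit false
set_option linter.unusedVariables false

namespace Cfsg.Agent.H7.Ch

open MulAction SubMulAction Cfsg.Agent.H3.Ch H2.NU H9.Ch H6.Ch

/-- size of a distinguishing set -/
noncomputable def ds (X : Type) {Ω : Type} [Group X] [MulAction X Ω] (u v : Ω) : ℕ :=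
  {z : Ω | ∀ x : X, x • z = z → x • u ≠ v}.ncard

/-- the group theoretic inputs -/
structure Inp : Prop where
  dm : ∀ {X Ω : Type} [Group X] [Finite X] [MulAction X Ω] [Finite Ω] [FaithfulSMul X Ω] [IsPreprimitive X Ω],
    ¬ IsMultiplyPretransitive X Ω 2 → ∀ u v : Ω, u ≠ v →
      4 * (Nat.card Ω - 1) ≤ ds X u v * (3 * ds X u v - 2) ∨ Nat.card Ω ≤ 4 * ds X u v
  sy : ∀ {X Ω : Type} [Group X] [Finite X] [MulAction X Ω] [Finite Ω] [FaithfulSMul X Ω] [IsPreprimitive X Ω]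
    {d μ : ℕ}, ¬ IsMultiplyPretransitive X Ω 2 → Dm (Nat.card Ω) d → MD X Ω μ → Nat.card X ≤ Sy (Nat.card Ω) d μ
  p1 : ∀ {X Ω : Type} [Group X] [Finite X] [MulAction X Ω] [Finite Ω] [FaithfulSMul X Ω] [IsPretransitive X Ω]
    (d : ℕ), (∀ u v : Ω, u ≠ v → d ≤ ds X u v) →
      (d : ℝ) * Real.log (Nat.card X) ≤ Nat.card Ω * psi (Nat.card Ω)
  ln : ∀ {X Ω : Type} [Group X] [Finite X] [MulAction X Ω] [Finite Ω] [FaithfulSMul X Ω] [IsPretransitive X Ω]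
    (d : ℕ) (l : List ℝ), 0 < d → (∀ u v : Ω, u ≠ v → d ≤ ds X u v) → 2 ≤ Nat.card Ω → (∀ y ∈ l, 1 ≤ y) →
      Real.log (Nat.card X) ≤ (LN (Nat.card Ω) d l).1 + (LN (Nat.card Ω) d l).2 * ((Nat.card Ω : ℝ) - 1)
  p2 : ∀ {X Ω : Type} [Group X] [Finite X] [MulAction X Ω] [Finite Ω] [FaithfulSMul X Ω] {k s : ℕ},
    IsMultiplyPretransitive X Ω 2 → Sep X Ω k s → 0 < s → s < Nat.card Ω →
      2 * (s : ℝ) * ((Nat.card Ω : ℝ) - s) * Real.log (Nat.card X) ≤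
        k * (Nat.card Ω : ℝ) * ((Nat.card Ω : ℝ) - 1) * psi (Nat.card Ω)
  bl : ∀ {J Ω : Type} [Group J] [Finite J] [MulAction J Ω] [Finite Ω] [FaithfulSMul J Ω] {m : ℕ} (α : Ω),
    IsMultiplyPretransitive J Ω 2 → Nat.card Ω = m + 1 →
    ¬ IsPreprimitive (stabilizer J α) (ofStabilizer J α) → ∃ a b, 2 ≤ a ∧ 2 ≤ b ∧ a * b = m ∧
      (a = 2 → ∃ β γ : Ω, α ≠ β ∧ α ≠ γ ∧ β ≠ γ ∧ ∀ g : J, g • α = α → g • β = β → g • γ = γ) ∧
      (∀ μ e c, 1 ≤ μ → MD J Ω μ → e ≤ b → c ≤ a → e * a + c < μ → (e = b → c = 0) →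
        Nat.card (stabilizer J α) * (e.factorial * c.factorial) ≤ a.factorial ^ (b - e) * b.factorial) ∧
      (∀ j < b, Sep J Ω (j + 1) (j * a)) ∧
      ∀ k s, Sep J Ω k s → 2 * a * s ≤ m + 1 → ∃ s', Sep J Ω (k + 1) s' ∧ a ∣ s' ∧ s' ≤ a * s ∧
        s * a * (2 * a - 1) ≤ s' * (3 * a - 2)

theorem ps (I : Inp) (nu : NumU) (ni : NumI) {α : Type*} [Fintype α] [DecidableEq α]
    (G : Subgroup (Equiv.Perm α)) (hG : IsPreprimitive G α) (hA : ¬ alternatingGroup α ≤ G) :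
    Nat.card G ≤ 4 ^ Fintype.card α := by
  refine frame (fun α _ _ G n9 _ hA => red G hA (by omega)
    (fun t H Ω _ _ _ _ _ _ t1 t3 ml c o h2 md => ?_)
    fun t J Ω _ _ _ _ _ a t2 t3 ml g2 c o o' j2 np md mj => ?_) G hG hA
  · have dd := fun d (h : Dm (Nat.card Ω) d) u v uv => h _ (I.dm h2 u v uv)
    rw [o]
    exact nu _ t (Nat.card Ω) _ (by omega) t1 t3 ml (by omega) (fun d μ h k => I.sy h2 h (md μ k))
      (fun d h => I.p1 d (dd d h)) fun d l d0 h k => I.ln d l d0 (dd d h) (by omega) k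
  obtain ⟨m, hm⟩ : ∃ m, Nat.card Ω = m + 1 := ⟨Nat.card Ω - 1, by omega⟩
  obtain ⟨u, v, u2, v2, uv, k1, k2, k3, k4⟩ := I.bl a j2 hm np
  have : IsPretransitive J Ω := isPretransitive_of_is_two_pretransitive
  rw [o]
  refine ni _ t (Nat.card Ω) u v _ _ (Sep J Ω) (by omega) t2 t3 ml (by omega) u2 v2 (by omega) (st_ord a)
    (fun μ e c h1 h => k2 μ e c h1 (mj μ (h.elim (md μ) (H4.Ch.bo2 G hA g2)))) (fun e => ?_) k3
    (fun k s h l => k4 k s h (hm ▸ l)) fun k s => I.p2 j2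
  obtain ⟨β, γ, l1, l2, l3, l4⟩ := k1 e
  exact H4.Ch.dblc j2 l1 l2 l3 l4

end Cfsg.Agent.H7.Ch
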