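import Cfsg.Agent.H3.Ch.As1
import Cfsg.Agent.H4.Ch.Mu
import Cfsg.Agent.H6.Ch.Mil

/-! Reduction of a primitive group to a simply primitive or an imprimitive stabiliser. -/

set_option autoImplicit false
set_option linter.unusedVariables false

namespace Cfsg.Agent.H7.Ch

open MulAction SubMulAction Cfsg.Agent.H3.Ch

theorem red {α : Type} [Fintype α] [DecidableEq α] (G : Subgroup (Equiv.Perm α)) [IsPreprimitive G α]
    (hA : ¬ alternatingGroup α ≤ G) (n8 : 8 ≤ Nat.card α) {P : Prop}
    (cU : ∀ (t : ℕ) (H Ω : Type) [Group H] [Finite H] [MulAction H Ω] [Finite Ω] [FaithfulSMul H Ω]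
      [IsPreprimitive H Ω], 1 ≤ t → t + 3 ≤ Nat.card α → (∀ r < t, ¬ Mil (Nat.card α) r) →
      Nat.card Ω = Nat.card α + 1 - t → Nat.card G = (Nat.card α).descFactorial (t - 1) * Nat.card H →
      ¬ IsMultiplyPretransitive H Ω 2 → (∀ μ, Mu (Nat.card α) t μ → MD H Ω μ) → P)
    (cI : ∀ (t : ℕ) (J Ω : Type) [Group J] [Finite J] [MulAction J Ω] [Finite Ω] [FaithfulSMul J Ω] (a : Ω),
      2 ≤ t → t + 3 ≤ Nat.card α → (∀ r < t, ¬ Mil (Nat.card α) r) → IsMultiplyPretransitive G α 2 →
      Nat.card Ω = Nat.card α + 2 - t → Nat.card G = (Nat.card α).descFactorial (t - 2) * Nat.card J →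
      Nat.card G = (Nat.card α).descFactorial (t - 1) * Nat.card (stabilizer J a) →
      IsMultiplyPretransitive J Ω 2 → ¬ IsPreprimitive (stabilizer J a) (ofStabilizer J a) →
      (∀ μ, Mu (Nat.card α) t μ → MD G α μ) → (∀ μ, MD G α μ → MD J Ω μ) → P) : P := by
  classical
  have ex : ∃ t, ¬ IsMultiplyPretransitive G α (t + 1) := ⟨Nat.card α - 3, fun h =>
    hA (IsMultiplyPretransitive.alternatingGroup_le α G (by rwa [show Nat.card α - 2 = Nat.card α - 3 + 1 by omega]))⟩
  obtain ⟨t, ht⟩ : ∃ t, t = Nat.find ex := ⟨_, rfl⟩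
  have nt : ¬ IsMultiplyPretransitive G α (t + 1) := ht ▸ Nat.find_spec ex
  have lt : ∀ r < t, IsMultiplyPretransitive G α (r + 1) := fun r h => not_not.1 (Nat.find_min ex (ht ▸ h))
  have t3 : t + 3 ≤ Nat.card α := by
    have : t ≤ Nat.card α - 3 := ht ▸ Nat.find_min' ex fun h => hA
      (IsMultiplyPretransitive.alternatingGroup_le α G (by rwa [show Nat.card α - 2 = Nat.card α - 3 + 1 by omega]))
    omega
  have t1 : 1 ≤ t := Nat.pos_of_ne_zero fun e => nt (by rw [e]; exact is_one_pretransitive_iff.2 inferInstance)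
  have tt : IsMultiplyPretransitive G α t := by simpa [Nat.sub_add_cancel t1] using lt (t - 1) (by omega)
  have md := fun μ (h : Mu (Nat.card α) t μ) => H4.Ch.mu G hA (by omega) tt h
  have ml : ∀ r < t, ¬ Mil (Nat.card α) r := fun r h c => H6.Ch.mil G hA (lt r h) c fun n9 r3 =>
    md 5 (Or.inr ⟨by omega, Or.inr fun k k1 k2 => by
      obtain rfl : k = 4 := by omega
      rw [Nat.div_eq_of_lt (by omega)]; omega⟩)
  rcases t1.eq_or_lt with rfl | t2
  · exact cU 1 G α le_rfl t3 ml rfl (by simp) nt md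
  obtain ⟨J, Ω, _, _, _, _, _, φ, h1, h2, h3, h4, h5⟩ := desc (t - 2) G α (by omega)
    (isMultiplyPretransitive_of_le (n := t) (by omega) (by omega))
  have j2 : IsMultiplyPretransitive J Ω 2 := (h4 2).2 (by rwa [show 2 + (t - 2) = t by omega])
  have : IsPretransitive J Ω := isPretransitive_of_is_two_pretransitive
  obtain ⟨a⟩ : Nonempty Ω := (Nat.card_pos_iff.1 (by omega)).1
  have := st_faith (X := J) a
  have c := st_card (X := J) a
  have o : Nat.card G = (Nat.card α).descFactorial (t - 1) * Nat.card (stabilizer J a) := by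
    rw [h3, st_ord (X := J) a, show t - 1 = t - 2 + 1 by omega, Nat.descFactorial_succ,
      show Nat.card α - (t - 2) = Nat.card Ω by omega]; ring
  by_cases hp : IsPreprimitive (stabilizer J a) (ofStabilizer J a)
  · exact cU t (stabilizer J a) (ofStabilizer J a) t1 t3 ml (by omega) o (fun h => nt (by
      have := (h4 3).1 (ofStabilizer.isMultiplyPretransitive.2 h)
      rwa [show 3 + (t - 2) = t + 1 by omega] at this)) fun μ h => st_md a (h5 μ (md μ h))
  exact cI t J Ω a t2 t3 ml (lt 1 t2) (by omega) h3 o j2 hp md h5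

/-- transport of the order bound to an arbitrary universe, small degrees -/
theorem frame (h : ∀ (α : Type) [Fintype α] [DecidableEq α] (G : Subgroup (Equiv.Perm α)),
      9 ≤ Nat.card α → IsPreprimitive G α → ¬ alternatingGroup α ≤ G → Nat.card G ≤ 4 ^ Nat.card α)
    {α : Type*} [Fintype α] [DecidableEq α] (G : Subgroup (Equiv.Perm α)) (hG : IsPreprimitive G α)
    (hA : ¬ alternatingGroup α ≤ G) : Nat.card G ≤ 4 ^ Fintype.card α := by
  rcases le_or_gt (Fintype.card α) 8 with n8 | n8
  · refine (Subgroup.card_le_card_group G).trans ?_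
    rw [Nat.card_perm, Nat.card_eq_fintype_card]
    generalize Fintype.card α = n at n8
    interval_cases n <;> decide
  let e := Fintype.equivFin α
  let φ : Equiv.Perm α ≃* Equiv.Perm (Fin (Fintype.card α)) := e.permCongrHom
  have := h _ (G.map φ.toMonoidHom) (by rw [Nat.card_fin]; exact n8) ?_ fun c => hA fun x hx => ?_
  · rwa [Nat.card_fin, ← Nat.card_congr (G.equivMapOfInjective _ φ.injective).toEquiv] at this
  · let f : α →ₑ[(φ.toMonoidHom.subgroupMap G : G → _)] Fin (Fintype.card α) :=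
      ⟨e, fun g x => show e (g.1 x) = e (g.1 (e.symm (e x))) by rw [e.symm_apply_apply]⟩
    exact IsPreprimitive.of_surjective (f := f) e.surjective
  · obtain ⟨y, hy, k⟩ := c (show φ x ∈ _ by simpa [φ] using hx)
    rwa [← φ.injective k]

end Cfsg.Agent.H7.Ch
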